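import Cfsg.Agent.Lib.Q5H.Def
import Cfsg.Agent.Lib.Unitary.Std

/-!
# Q5H/LU: `L₄`, `U₄`, `L₅`, `U₅` in odd characteristic

All elements are explicit matrices; `mk_ne_one` shows that the image modulo the centre is non-trivial, `Pure.map` with
`QuotientGroup.mk' _` transports purity.  Membership in `SU`: `Unitary.IsBar.mem_SU_iff` (`exists_isBar`).
-/

set_option autoImplicit false

namespace Cfsg.Lib.Q5H

open scoped MatrixGroups Matrix commutatorElement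
open Subgroup QuotientGroup Cfsg.Lib.Unitary

namespace LU

variable {F : Type} [Field F] {n : ℕ} {G : Type*} [Group G] {ι : G →* Matrix (Fin n) (Fin n) F} {a b t g : G}
  {M N T C : Matrix (Fin n) (Fin n) ℤ}

/-- `G` is a matrix group containing the integral orthogonal matrices of determinant one. -/
structure Md (ι : G →* Matrix (Fin n) (Fin n) F) : Prop where
  inj : Function.Injective ι
  two : (2 : F) ≠ 0
  ex : ∀ M : Matrix (Fin n) (Fin n) ℤ, Mᵀ * M = 1 → M.det = 1 → ∃ g, ι g = M.map (Int.castRingHom F)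

/-- `a` is the integral matrix `M`. -/
def R (ι : G →* Matrix (Fin n) (Fin n) F) (a : G) (M : Matrix (Fin n) (Fin n) ℤ) : Prop := ι a = M.map (Int.castRingHom F)

theorem R.mul (ha : R ι a M) (hb : R ι b N) : R ι (a * b) (M * N) := by
  rw [R, map_mul, ha, hb, Matrix.map_mul]

theorem R.inv (ha : R ι a M) (h : Mᵀ * M = 1) : R ι a⁻¹ Mᵀ := by
  have : Mᵀ.map (Int.castRingHom F) * ι a = 1 := by rw [ha, ← Matrix.map_mul, h]; simp
  rw [R, ← one_mul (ι a⁻¹), ← this, mul_assoc, ← map_mul, mul_inv_cancel, map_one, mul_one]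

theorem R.mk_eq (m : Md ι) (ha : R ι a M) (hb : R ι b N) (h : M = N ∨ M = -N) : (mk a : G ⧸ center G) = mk b := by
  rcases h with rfl | rfl
  · rw [m.inj (ha.trans hb.symm)]
  · have : ι (b⁻¹ * a) = -1 := by
      rw [map_mul, ha, Matrix.map_neg _ (map_neg _), ← hb, mul_neg, ← map_mul, inv_mul_cancel, map_one]
    exact (QuotientGroup.eq.2 (mem_center_iff.2 fun w => m.inj (by rw [map_mul, map_mul _ _ w, this]; simp))).symm

/-- The check that `C` permutes `T` and its conjugates cyclically modulo `±1`. -/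
abbrev Chk (T C : Matrix (Fin n) (Fin n) ℤ) : Prop :=
  (∃ i j, (T * C) i j = 1 ∧ ((C * T) i j = 0 ∨ (C * T) i j = -1)) ∧ (T * T = 1 ∨ T * T = -1) ∧
    (T * (C * T * Cᵀ) = C * (C * T * Cᵀ) * Cᵀ ∨ T * (C * T * Cᵀ) = -(C * (C * T * Cᵀ) * Cᵀ))

theorem R.pure (m : Md ι) (ht : R ι t T) (hg : R ι g C) (hC : Cᵀ * C = 1) (c : Chk T C) : Pure (mk t : G ⧸ center G) := by
  obtain ⟨⟨i, j, e1, e2⟩, c2, c3⟩ := c
  have k := (hg.mul ht).mul (hg.inv hC)
  refine .of_three (mk_ne_one (w := g) fun e => ?_) ((ht.mul ht).mk_eq m (b := 1) (by simp [R]) c2) (mk g)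
    ((ht.mul k).mk_eq m ((hg.mul k).mul (hg.inv hC)) c3)
  have := Matrix.ext_iff.2 ((ht.mul hg).symm.trans (e ▸ hg.mul ht)) i j
  rcases e2 with e2 | e2 <;> simp only [Matrix.map_apply, e1, e2, map_one, map_zero, map_neg] at this
  · exact one_ne_zero this
  · exact m.two (by linear_combination this)

theorem md_bad {ι : G →* Matrix (Fin 4) (Fin 4) F} (m : Md ι) : Bad (G ⧸ center G) := by
  obtain ⟨a, ha⟩ := m.ex !![-1, 0, 0, 0; 0, -1, 0, 0; 0, 0, 1, 0; 0, 0, 0, 1] (by decide +kernel) (by decide +kernel)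
  obtain ⟨b, hb⟩ := m.ex !![-1, 0, 0, 0; 0, 1, 0, 0; 0, 0, -1, 0; 0, 0, 0, 1] (by decide +kernel) (by decide +kernel)
  obtain ⟨c, hc⟩ := m.ex !![0, 1, 0, 0; 1, 0, 0, 0; 0, 0, 0, 1; 0, 0, 1, 0] (by decide +kernel) (by decide +kernel)
  obtain ⟨g, hg⟩ := m.ex !![0, 0, 1, 0; 1, 0, 0, 0; 0, 1, 0, 0; 0, 0, 0, 1] (by decide +kernel) (by decide +kernel)
  have k := fun {t T} (h : R ι t T) => h.pure m hg (by decide +kernel)
  exact ⟨mk a, mk b, mk c, k ha (by decide +kernel), k hb (by decide +kernel), k hc (by decide +kernel),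
    k (.mul ha hb) (by decide +kernel), k (.mul ha hc) (by decide +kernel), k (.mul hb hc) (by decide +kernel),
    k (.mul (.mul ha hb) hc) (by decide +kernel)⟩

/-- `a ⊕ 1 ⊕ X`. -/
def bk (a : F) (X : Matrix (Fin 3) (Fin 3) F) : Matrix (Fin 5) (Fin 5) F :=
  !![a, 0, 0, 0, 0; 0, 1, 0, 0, 0; 0, 0, X 0 0, X 0 1, X 0 2; 0, 0, X 1 0, X 1 1, X 1 2; 0, 0, X 2 0, X 2 1, X 2 2]

theorem bk_mul (a b : F) (X Y : Matrix (Fin 3) (Fin 3) F) : bk a X * bk b Y = bk (a * b) (X * Y) := by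
  ext i j
  fin_cases i <;> fin_cases j <;> simp [bk, Matrix.mul_apply, Fin.sum_univ_five, Fin.sum_univ_three]

theorem bk_one : bk (1 : F) 1 = 1 := by
  ext i j
  fin_cases i <;> fin_cases j <;> simp [bk]

theorem bk_det (a : F) (X : Matrix (Fin 3) (Fin 3) F) : (bk a X).det = a * X.det := by
  simp [bk, Matrix.det_succ_row_zero (n := 4), Matrix.det_succ_row_zero (n := 3), Fin.sum_univ_succ, Fin.succAbove,
    Matrix.det_fin_three]

theorem bk_map (σ : F →+* F) (a : F) (X : Matrix (Fin 3) (Fin 3) F) : ((bk a X).map σ)ᵀ = bk (σ a) (X.map σ)ᵀ := by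
  ext i j
  fin_cases i <;> fin_cases j <;> simp [bk]

/-- A Heisenberg triple whose centre lives in the last two coordinates. -/
def Dat (ι : G →* Matrix (Fin 5) (Fin 5) F) : Prop := ∃ (x y u g : G) (X Y U C : Matrix (Fin 3) (Fin 3) F) (a c d e f : F),
  ι x = bk 1 X ∧ ι y = bk 1 Y ∧ ι u = bk 1 U ∧ ι g = bk a C ∧ d ≠ 0 ∧ U = !![1, 0, 0; 0, c, d; 0, e, f] ∧
    (U - 1) * (U - 1) = 0 ∧ X * U = U * X ∧ Y * U = U * Y ∧ X * Y = U * Y * X ∧ U * C * U = C

theorem tv_hs {ι : G →* Matrix (Fin 5) (Fin 5) F} (m : Md ι) (D : Dat ι) (r : ℕ) [CharP F r] :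
    Tv r (G ⧸ center G) ∧ Hs r (G ⧸ center G) := by
  obtain ⟨x, y, u, w, X, Y, U, C, k, c, d, e, f, hx, hy, hu, hw, nz, hU, sq, h1, h2, h3, h4⟩ := D
  obtain ⟨a, ha⟩ := m.ex (.diagonal ![-1, -1, 1, 1, 1]) (by decide +kernel) (by decide +kernel)
  obtain ⟨b, hb⟩ := m.ex (.diagonal ![1, -1, -1, 1, 1]) (by decide +kernel) (by decide +kernel)
  obtain ⟨s, hs⟩ := m.ex (.diagonal ![-1, 1, 1, -1, 1]) (by decide +kernel) (by decide +kernel)
  obtain ⟨g, hg⟩ := m.ex !![0, 0, 1, 0, 0; 1, 0, 0, 0, 0; 0, 1, 0, 0, 0; 0, 0, 0, 1, 0; 0, 0, 0, 0, 1] (by decide +kernel)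
    (by decide +kernel)
  have k := fun {t T} (h : R ι t T) => h.pure m hg (by decide +kernel)
  have n : (mk u : G ⧸ center G) ≠ 1 := mk_ne_one (w := s) fun z => by
    have := Matrix.ext_iff.2 (congrArg ι z) 3 4
    simp only [map_mul, hs, hu, Matrix.diagonal_map (map_zero _), Matrix.mul_diagonal, Matrix.diagonal_mul] at this
    simp [bk, hU] at this
    exact mul_ne_zero m.two nz (by linear_combination this)
  have pw : ∀ k : ℕ, ι u ^ k = bk 1 (1 + k • (U - 1)) := fun k => by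
    induction k with
    | zero => simp [bk_one]
    | succ k ih =>
      rw [pow_succ, ih, hu, bk_mul, succ_nsmul, add_mul, smul_mul_assoc, one_mul, one_mul, show (U - 1) * U = U - 1 by
        rw [← sub_eq_zero, ← mul_sub_one, sq]]
      congr 1
      abel
  have p : (mk u : G ⧸ center G) ^ r = 1 := by
    rw [← mk_pow, show u ^ r = 1 from m.inj (by
      rw [map_pow, pw, map_one, ← Nat.cast_smul_eq_nsmul F, CharP.cast_eq_zero, zero_smul, add_zero, bk_one]), mk_one]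
  have cm : ∀ {a b : G}, ι a * ι b = ι b * ι a → Commute (mk a : G ⧸ center G) (mk b) := fun h =>
    congrArg mk (m.inj (by simpa using h))
  refine ⟨⟨mk a, mk b, mk u, k ha (by decide +kernel), k hb (by decide +kernel), k (R.mul ha hb) (by decide +kernel), n, p,
    cm ?_, cm ?_⟩, mk x, mk y, mk u, n, p, cm (by rw [hx, hu, bk_mul, bk_mul, h1]), cm (by rw [hy, hu, bk_mul, bk_mul, h2]),
    ?_, fun _ => isConj_iff.2 ⟨mk w, ?_⟩⟩
  · rw [ha, hu, Matrix.diagonal_map (map_zero _)]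
    ext i j
    fin_cases i <;> fin_cases j <;> simp [bk, hU]
  · rw [hb, hu, Matrix.diagonal_map (map_zero _)]
    ext i j
    fin_cases i <;> fin_cases j <;> simp [bk, hU]
  · rw [commutatorElement_def, mul_inv_eq_iff_eq_mul, mul_inv_eq_iff_eq_mul]
    exact congrArg mk (m.inj (by simp [hx, hy, hu, bk_mul, h3]))
  · rw [mul_inv_eq_iff_eq_mul, eq_inv_mul_iff_mul_eq, ← mul_assoc]
    exact congrArg mk (m.inj (by simp [hw, hu, bk_mul, h4]))

theorem two_ne [Fintype F] (h : Odd (Fintype.card F)) : (2 : F) ≠ 0 := fun e => by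
  have := (CharP.charP_iff_prime_eq_zero (R := F) Nat.prime_two).2 e
  exact Nat.not_even_iff_odd.2 h (even_iff_two_dvd.2 ((prime_dvd_char_iff_dvd_card 2).1 (by rw [ringChar.eq F 2])))

theorem det_map (h : M.det = 1) : (M.map (Int.castRingHom F)).det = 1 := by
  rw [← RingHom.mapMatrix_apply, ← RingHom.map_det, h, map_one]

theorem md_sl (h : (2 : F) ≠ 0) : Md (slToMat n F) :=
  ⟨fun _ _ e => Subtype.ext e, h, fun _ _ d => ⟨⟨_, det_map d⟩, rfl⟩⟩

theorem md_su {q : ℕ} {σ : F →+* F} (s : IsBar q σ) (h : (2 : F) ≠ 0) : Md ((slToMat n F).comp (SU n F q).subtype) :=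
  ⟨fun _ _ e => Subtype.ext (Subtype.ext e), h, fun M o d => ⟨⟨⟨_, det_map d⟩, s.mem_SU_iff.2 (by
    rw [Matrix.map_map, show σ ∘ Int.castRingHom F = Int.castRingHom F from funext (map_intCast σ),
      ← Matrix.transpose_map, ← Matrix.map_mul, o]
    simp)⟩, rfl⟩⟩

theorem dat_sl : Dat (slToMat 5 F) := by
  refine ⟨⟨bk 1 !![1, 0, 0; 1, 1, 0; 0, 0, 1], ?_⟩, ⟨bk 1 !![1, 0, 1; 0, 1, 0; 0, 0, 1], ?_⟩,
    ⟨bk 1 !![1, 0, 0; 0, 1, 1; 0, 0, 1], ?_⟩, ⟨bk (-1) !![1, 0, 0; 0, -1, 0; 0, 0, 1], ?_⟩, _, _, _, _, _, _, _, _, _,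
    rfl, rfl, rfl, rfl, one_ne_zero, rfl, ?_⟩ <;> simp [bk_det, Matrix.det_fin_three, Matrix.one_fin_three]

set_option maxHeartbeats 800000 in
theorem dat_su {q : ℕ} {σ : F →+* F} (s : IsBar q σ) (h : (2 : F) ≠ 0) : Dat ((slToMat 5 F).comp (SU 5 F q).subtype) := by
  obtain ⟨ε, hε⟩ := s.exists_norm_eq (μ := -1) (by simp)
  obtain ⟨δ, d0, hδ⟩ := s.exists_skew
  have e0 : ε ≠ 0 := by rintro rfl; simp at hε
  have e1 : σ ε = -ε⁻¹ := by field_simp; linear_combination hε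
  have ex : ∀ a X, a * X.det = 1 → σ a * a = 1 → (X.map σ)ᵀ * X = 1 →
      ∃ g, (slToMat 5 F).comp (SU 5 F q).subtype g = bk a X := fun a X d e f =>
    ⟨⟨⟨_, (bk_det a X).trans d⟩, s.mem_SU_iff.2 (by rw [bk_map, bk_mul, e, f, bk_one])⟩, rfl⟩
  have ex' : ∀ α β : F, β + σ β = α * σ α → ∃ g, (slToMat 5 F).comp (SU 5 F q).subtype g =
      bk 1 !![1, α, -α * ε⁻¹; -σ α, 1 - β, β * ε⁻¹; -σ α * ε, -β * ε, 1 + β] := fun α β e => by
    refine ex _ _ ?_ (by simp) ?_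
    · simp [Matrix.det_fin_three]
      field_simp
      ring
    · have e' : σ β = α * σ α - β := by linear_combination e
      ext i j
      fin_cases i <;> fin_cases j <;> simp [Matrix.mul_apply, Fin.sum_univ_three, e1, e', s.invol] <;> field_simp <;> ring
  have t2 : σ 2 = 2 := map_ofNat σ 2
  obtain ⟨x, hx⟩ := ex' 2 2 (by rw [t2]; ring)
  obtain ⟨y, hy⟩ := ex' (2 * δ) (-2 * δ ^ 2) (by simp [t2, hδ]; ring)
  obtain ⟨u, hu⟩ := ex' 0 (8 * δ) (by simp [map_ofNat, hδ])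
  obtain ⟨g, hg⟩ := ex (-ε⁻¹ ^ 2) !![1, 0, 0; 0, 0, 1; 0, ε ^ 2, 0] (by simp [Matrix.det_fin_three, e0]) (by simp [e1, e0]) (by
    ext i j
    fin_cases i <;> fin_cases j <;> simp [Matrix.mul_apply, Fin.sum_univ_three, e1, e0])
  refine ⟨x, y, u, g, _, _, _, _, _, 1 - 8 * δ, 8 * δ * ε⁻¹, -(8 * δ) * ε, 1 + 8 * δ, hx, hy, hu, hg,
    mul_ne_zero (mul_ne_zero (fun z => pow_ne_zero 3 h (by linear_combination z)) d0) (inv_ne_zero e0), by simp,
    ?_, ?_, ?_, ?_, ?_⟩ <;> ext i j <;> fin_cases i <;> fin_cases j <;>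
    simp [Matrix.mul_apply, Fin.sum_univ_three, t2, hδ] <;> field_simp <;> ring

end LU

open LU

variable {F : Type} [Field F] [Fintype F] {q : ℕ}

/-- Signed permutation matrices: `a = diag(-,-,+,+)`, `b = diag(-,+,-,+)`, `c` the matrix of `(01)(23)`, `g` the matrix of
`(0 1 2)`; modulo `-1` they satisfy the hypotheses of `Pure.of_three _ _ g` for all seven products (image of `2₊^{1+4} : 3`).
Do it once for a homomorphism `f` from the group of integral orthogonal matrices of determinant one with `f (-1) = 1`. -/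
theorem bad_L4 (h : Odd (Fintype.card F)) : Bad PSL(4, F) := md_bad (md_sl (two_ne h))

/-- The same matrices are unitary. -/
theorem bad_U4 (hF : Fintype.card F = q ^ 2) (h : Odd q) : Bad (PSU 4 F q) :=
  let ⟨_, s⟩ := exists_isBar hF
  md_bad (md_su s (two_ne (hF ▸ h.pow)))

/-- `a = diag(-,-,+,+,+)`, `b = diag(+,-,-,+,+)`, permuted with `a b` by the matrix of `(0 1 2)`; `u = 1 + E₃₄`. -/
theorem tv_L5 (r : ℕ) [CharP F r] (h : Odd (Fintype.card F)) : Tv r PSL(5, F) :=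
  (tv_hs (md_sl (two_ne h)) dat_sl r).1

/-- `x = 1 + E₀₁`, `y = 1 + E₁₂`, `u = 1 + E₀₂`, inverted by `diag(-,+,+,-,+)`. -/
theorem hs_L5 (r : ℕ) [CharP F r] (h : Odd (Fintype.card F)) : Hs r PSL(5, F) :=
  (tv_hs (md_sl (two_ne h)) dat_sl r).2

/-- `a`, `b` as in `tv_L5`; `ε ε̄ = -1` (`IsBar.exists_norm_eq`), `v = e₃ + ε e₄` is isotropic, `δ̄ = -δ ≠ 0` (`IsBar.exists_skew`),
`u = 1 + δ v v*`. -/
theorem tv_U5 (r : ℕ) [CharP F r] (hF : Fintype.card F = q ^ 2) (h : Odd q) : Tv r (PSU 5 F q) :=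
  let ⟨_, s⟩ := exists_isBar hF
  (tv_hs (md_su s (two_ne (hF ▸ h.pow))) (dat_su s (two_ne (hF ▸ h.pow))) r).1

/-- With `v` as in `tv_U5`, `w = e₂`: `x(α) = 1 + α w v* - ᾱ v w* - (α ᾱ / 2) v v*`; `⁅x(2), x(δ)⁆ = 1 + c v v*` with `c = ±4 δ`, and
`1 + c v v*` is inverted by `diag(-ε⁻², 1, 1) ⊕ !![0, 1; ε², 0]` (it sends `v` to `ε v`). -/
theorem hs_U5 (r : ℕ) [CharP F r] (hF : Fintype.card F = q ^ 2) (h : Odd q) : Hs r (PSU 5 F q) :=
  let ⟨_, s⟩ := exists_isBar hF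
  (tv_hs (md_su s (two_ne (hF ▸ h.pow))) (dat_su s (two_ne (hF ▸ h.pow))) r).2

end Cfsg.Lib.Q5H
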