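import Cfsg.Agent.Lib.Q5.T2
import Cfsg.Agent.Lib.Q5.T3
import Cfsg.Agent.Lib.Q5H.Def

/-!
# Q5H/Obs: the configurations of `Q5H/Def` in `P / Z`
-/

set_option autoImplicit false

namespace Cfsg.Lib.Q5H

open scoped MatrixGroups Matrix commutatorElement
open Cfsg.Geo Cfsg.Lib.Asch Cfsg.Lib.Linear Cfsg.Lib.Q5 QuotientGroup
open Cfsg.Lib.Q4R hiding Sq HasTv

variable {K : Type*} [Field K]

/-- The eigenspaces of `u` for `ω` and `ω²` would both have dimension divisible by three. -/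
theorem heis3 [IsAlgClosed K] {x y u g : G5 K} (hK : (3 : K) ≠ 0) (h1 : u ^ 3 = 1) (h0 : u ≠ 1) (cx : x * u = u * x)
    (cy : y * u = u * y) {c : Kˣ} (hc : c ^ 5 = 1) (e : ⁅x, y⁆ = sc c * u) (re : g * u * g⁻¹ = u⁻¹) : False := by
  classical
  obtain ⟨k, χ, w⟩ := T2a.wt_zp (n := 3) (by exact_mod_cast hK) h1
  set a : Subgroup.zpowers u := ⟨u, Subgroup.mem_zpowers u⟩
  have a3 : ∀ i, χ i a ^ 3 = 1 := fun i => by rw [← map_pow, show a ^ 3 = 1 from Subtype.ext h1, map_one]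
  have m : ∀ {x : G5 K}, x * u = u * x → x ∈ Subgroup.centralizer (Subgroup.zpowers u : Set (G5 K)) := by
    rintro x c _ ⟨i, rfl⟩
    exact (Commute.zpow_right c i).symm
  have key : ∀ i, χ i a ≠ 1 → 3 ≤ (Finset.univ.filter fun j => χ j = χ i).card := fun i n => by
    obtain ⟨β, hβ⟩ := w.block (χ i)
    have d : (β ⁅(⟨x, m cx⟩ : Subgroup.centralizer _), ⟨y, m cy⟩⁆).1.det = 1 := by
      change ((Matrix.GeneralLinearGroup.det (β _) : Kˣ) : K) = 1
      rw [map_commutatorElement, map_commutatorElement, commutatorElement_eq_one_iff_mul_comm.2 (mul_comm _ _),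
        Units.val_one]
    have v : (β ⁅(⟨x, m cx⟩ : Subgroup.centralizer _), ⟨y, m cy⟩⁆).1 = ((c * χ i a : Kˣ) : K) • 1 := by
      ext j l
      rw [hβ]
      change (k * ⁅x, y⁆ * k⁻¹).1 j l = _
      rw [e, ← conj_mul, scal_conj (sc_mem c), show k * u * k⁻¹ = _ from w a, sc_eq, ← map_mul, dg_val,
        Matrix.diagonal_apply, Matrix.smul_apply, Matrix.one_apply]
      by_cases r : j = l
      · simp [r, l.2]
      · simp [r, Subtype.coe_inj]
    rw [v, Matrix.det_smul, Matrix.det_one, mul_one, Fintype.card_subtype] at d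
    have p1 : (c * χ i a) ^ (Finset.univ.filter fun j => χ j = χ i).card = 1 := Units.ext (by simpa using d)
    have p2 := congrArg (· ^ 5) p1
    simp only [← pow_mul, mul_pow, one_pow] at p2
    rw [mul_comm _ 5, pow_mul c, hc, one_pow, one_mul] at p2
    have : Fact (Nat.Prime 3) := ⟨by norm_num⟩
    have := orderOf_eq_prime (a3 i) n ▸ orderOf_dvd_of_pow_eq_one p2
    have : 0 < (Finset.univ.filter fun j => χ j = χ i).card := Finset.card_pos.2 ⟨i, by simp⟩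
    omega
  obtain ⟨i, n⟩ : ∃ i, χ i a ≠ 1 := by_contra fun z => h0 (congrArg Subtype.val (w.eq_one (by simpa using z)))
  obtain ⟨σ, -, hσ⟩ := w.perm g
  have s := hσ a a⁻¹ re i
  rw [map_inv, inv_eq_iff_eq_inv] at s
  have := Finset.card_le_univ ((Finset.univ.filter fun j => χ j = χ i) ∪ Finset.univ.filter fun j => χ j = χ (σ i))
  rw [Finset.card_union_of_disjoint (Finset.disjoint_filter.2 fun j _ e1 e2 => n (by
    have t : χ i a * χ i a = 1 := by rw [mul_eq_one_iff_eq_inv, ← s, ← e2, e1]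
    simpa [pow_succ, t] using a3 i)), Fintype.card_fin] at this
  have k1 := key i n
  have k2 := key (σ i) (by rwa [s, Ne, inv_eq_one])
  omega

theorem rr_val (i j : Fin 5) : (rr i * rr j : G5 K).1 =
    Matrix.diagonal fun l => (if l = i then -1 else 1) * (if l = j then -1 else 1) := by
  rw [rr, rr, ← map_mul, dg_val]
  congr 1
  ext l
  simp only [Pi.mul_apply, Pi.mulSingle_apply, Units.val_mul]
  split_ifs <;> simp

/-- Elements commuting with the frame group have block shape `1 + 1 + 1 + 2`. -/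
theorem blocks [NeZero (2 : K)] {m : G5 K} (c1 : Commute m (rr 0 * rr 1)) (c2 : Commute m (rr 1 * rr 2)) :
    ∃ a b c d e f g : K, m.1 = !![a, 0, 0, 0, 0; 0, b, 0, 0, 0; 0, 0, c, 0, 0; 0, 0, 0, d, e; 0, 0, 0, f, g] ∧
      m.1.trace = a + b + c + (d + g) ∧ (rr 0 * rr 1 * m).1.trace = -a - b + c + (d + g) ∧
      (rr 1 * rr 2 * m).1.trace = a - b - c + (d + g) ∧ (rr 0 * rr 1 * (rr 1 * rr 2) * m).1.trace = -a + b - c + (d + g) := by
  have z : ∀ x : K, x = -x ↔ x = 0 := fun x => by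
    rw [eq_neg_iff_add_eq_zero, ← two_mul, mul_eq_zero, or_iff_right (NeZero.ne 2)]
  have e1 := Matrix.ext_iff.2 (congrArg Units.val c1.eq)
  have e2 := Matrix.ext_iff.2 (congrArg Units.val c2.eq)
  simp only [Units.val_mul m, Units.val_mul _ m, rr_val, Matrix.mul_diagonal, Matrix.diagonal_mul] at e1 e2
  refine ⟨m.1 0 0, m.1 1 1, m.1 2 2, m.1 3 3, m.1 3 4, m.1 4 3, m.1 4 4, ?_, ?_⟩
  · ext i j
    have f1 := e1 i j
    have f2 := e2 i j
    fin_cases i <;> fin_cases j <;> simp [z, eq_comm (a := -m.1 _ _)] at f1 f2 ⊢ <;> assumption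
  · rw [mul_assoc (rr 0 * rr 1)]
    simp only [Units.val_mul (_ * _), rr_val, Matrix.trace, Matrix.diag, Matrix.diagonal_mul, Fin.sum_univ_five]
    simp
    refine ⟨?_, ?_, ?_, ?_⟩ <;> ring

theorem no_ta8 [IsAlgClosed K] [NeZero (2 : K)] {m : G5 K} (c1 : Commute m (rr 0 * rr 1)) (c2 : Commute m (rr 1 * rr 2))
    (t1 : TA m) (t2 : TA (rr 0 * rr 1 * m)) (t3 : TA (rr 1 * rr 2 * m)) (t4 : TA (rr 0 * rr 1 * (rr 1 * rr 2) * m)) :
    False := by
  obtain ⟨a, b, c, d, e, f, g, hm, k1, k2, k3, k4⟩ := blocks c1 c2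
  have t0 := Matrix.ext_iff.2 (congrArg Units.val t1.1) 0 0
  have : (2 : K) * 2 * a = 0 := by
    linear_combination t1.trace - t2.trace + t3.trace - t4.trace - k1 + k2 - k3 + k4
  simp only [mul_eq_zero, NeZero.ne (2 : K), false_or] at this
  simp [hm, this, Matrix.mul_apply, Fin.sum_univ_five] at t0

theorem rank_one (p : ℕ) [Fact p.Prime] [CharP K p] [NeZero (2 : K)] {m : G5 K} (c1 : Commute m (rr 0 * rr 1))
    (c2 : Commute m (rr 1 * rr 2)) (hp : m ^ p = 1) (hd : m.1.det = 1) : (m.1 - 1).rank ≤ 1 := by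
  obtain ⟨a, b, c, d, e, f, g, hm, k1, k2, k3, k4⟩ := blocks c1 c2
  have u := fun s (c : Commute m s) => trace_unip p (n := 1) (s := s) (by rwa [pow_one]) c.symm.eq
  have t1 := u 1 (.one_right m)
  rw [one_mul] at t1
  rw [t1] at k1
  rw [u _ c1, rr_val] at k2
  rw [u _ c2, rr_val] at k3
  rw [u _ (c1.mul_right c2), Units.val_mul, rr_val, rr_val] at k4
  simp [Matrix.trace, Fin.sum_univ_five] at k1 k2 k3 k4
  have z : ∀ x : K, 2 * 2 * x = 0 → x = 0 := fun x h => by simpa [NeZero.ne (2 : K)] using h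
  obtain rfl : a = 1 := sub_eq_zero.1 (z _ (by linear_combination k2 - k1 + k4 - k3))
  obtain rfl : b = 1 := sub_eq_zero.1 (z _ (by linear_combination k2 - k1 + k3 - k4))
  obtain rfl : c = 1 := sub_eq_zero.1 (z _ (by linear_combination k3 - k1 + k4 - k2))
  obtain rfl : g = 2 - d := by linear_combination -k1
  replace hd : d * (2 - d) - e * f = 1 := by
    simpa [hm, Matrix.det_succ_row_zero, Fin.sum_univ_succ, Fin.succAbove, sub_eq_add_neg] using hd
  by_cases z : e = 0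
  · obtain rfl : d = 1 := sub_eq_zero.1 (pow_eq_zero_iff two_ne_zero |>.1 (by rw [z] at hd; linear_combination -hd))
    refine (congrArg _ ?_).trans_le (Matrix.rank_vecMulVec_le ![0, 0, 0, 0, f] ![0, 0, 0, 1, 0])
    ext i j
    fin_cases i <;> fin_cases j <;> simp [hm, z, Matrix.vecMulVec_apply]
    norm_num
  · refine (congrArg _ ?_).trans_le (Matrix.rank_vecMulVec_le ![0, 0, 0, e, 1 - d] ![0, 0, 0, (d - 1) / e, 1])
    ext i j
    fin_cases i <;> fin_cases j <;> simp [hm, Matrix.vecMulVec_apply] <;> field_simp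
    · linear_combination -hd
    · ring

variable {P : Subgroup (G5 K)} (h : QS P) {g g' w : P} {n : ℕ}
include h

theorem lift_comm (hg : g ^ n = 1) (c : n.Coprime 5) (e : Commute (mk w : Sq P) (mk g)) : Commute w g :=
  mul_inv_eq_iff_eq_mul.1 (h.lift_unique (by rw [mk_mul, mk_mul, e.eq, mk_inv, mul_inv_cancel_right])
    (by rw [conj_pow, hg, mul_one, mul_inv_cancel]) hg c)

theorem lift_conj (hg : g ^ n = 1) (hg' : g' ^ n = 1) (c : n.Coprime 5) (e : IsConj (mk g : Sq P) (mk g')) :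
    IsConj g.1 g'.1 := by
  obtain ⟨x, e⟩ := isConj_iff.1 e
  obtain ⟨x, rfl⟩ := mk_surjective x
  exact P.subtype.map_isConj (isConj_iff.2 ⟨x, h.lift_unique e (by rw [conj_pow, hg, mul_one, mul_inv_cancel]) hg' c⟩)

theorem ex_inv {t : Sq P} (e : t * t = 1) : ∃ g : P, mk g = t ∧ g ^ 2 = 1 :=
  h.exists_lift (by rw [pow_two, e]) (by norm_num)

theorem sq_mul (hg : g ^ 2 = 1) (hg' : g' ^ 2 = 1) (e : (mk g * mk g' : Sq P) * (mk g * mk g') = 1) :
    Commute g g' ∧ (g * g') ^ 2 = 1 := by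
  have c : Commute g g' := lift_comm h hg' (by norm_num) (comm_of_sq
    (by rw [← pow_two, ← mk_pow, hg, mk_one]) (by rw [← pow_two, ← mk_pow, hg', mk_one]) e)
  exact ⟨c, by rw [c.mul_pow, hg, hg', one_mul]⟩

variable [IsAlgClosed K]

theorem ta_lift [NeZero (2 : K)] (hg : g ^ 2 = 1) (p : Pure (mk g : Sq P)) : TA g.1 := by
  obtain ⟨n, t, s, e1, e2⟩ := p
  obtain ⟨s, rfl, hs⟩ := ex_inv h (sq_of_isConj t e1)
  obtain ⟨c, k⟩ := sq_mul h hg hs (sq_of_isConj t e2)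
  refine ta_of_pure (s := s.1) (by rw [← pow_two]; exact congrArg Subtype.val hg)
    (fun e => n (by rw [show g = 1 from Subtype.ext e, mk_one])) (h.det g.2) (congrArg Subtype.val c.eq.symm)
    (fun e => n ?_) (lift_conj h hg hs (by norm_num) e1)
    (by rw [← Subgroup.coe_mul, ← c.eq]; exact lift_conj h hg k (by norm_num) e2)
  rw [Subtype.ext e, t] at e2
  exact isConj_one_left.1 e2

/-- The lifts of a four-group of `Pure` involutions. -/
theorem frame [NeZero (2 : K)] {a b : Sq P} (ha : Pure a) (hb : Pure b) (hab : Pure (a * b)) : ∃ (s t : P) (k : G5 K),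
    mk s = a ∧ mk t = b ∧ s ^ 2 = 1 ∧ t ^ 2 = 1 ∧ (s * t) ^ 2 = 1 ∧ k * s.1 * k⁻¹ = rr 0 * rr 1 ∧ k * t.1 * k⁻¹ = rr 1 * rr 2 := by
  obtain ⟨s, rfl, hs⟩ := ex_inv h ha.2.1
  obtain ⟨t, rfl, ht⟩ := ex_inv h hb.2.1
  obtain ⟨c, k⟩ := sq_mul h hs ht hab.2.1
  obtain ⟨x, e⟩ := frame_of_ta (ta_lift h hs ha) (ta_lift h ht hb) (ta_lift h k hab) (congrArg Subtype.val c.eq)
  exact ⟨s, t, x, rfl, rfl, hs, ht, k, e⟩

theorem not_bad [NeZero (2 : K)] : ¬ Bad (Sq P) := by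
  rintro ⟨a, b, c, h1, h2, h3, h4, h5, h6, h7⟩
  obtain ⟨s, t, k, rfl, rfl, hs, ht, hst, e1, e2⟩ := frame h h1 h2 h4
  obtain ⟨u, rfl, hu⟩ := ex_inv h h3.2.1
  obtain ⟨c1, k1⟩ := sq_mul h hs hu h5.2.1
  obtain ⟨c2, k2⟩ := sq_mul h ht hu h6.2.1
  have cj : ∀ x : G5 K, IsConj x (k * x * k⁻¹) := fun x => isConj_iff.2 ⟨k, rfl⟩
  refine no_ta8 (m := k * u.1 * k⁻¹) (e1 ▸ (c1.symm.map P.subtype).map (MulAut.conj k))
    (e2 ▸ (c2.symm.map P.subtype).map (MulAut.conj k)) ((ta_lift h hu h3).conj (cj _)) ?_ ?_ ?_ <;>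
    simp only [← e1, ← e2, conj_mul]
  exacts [(ta_lift h k1 h5).conj (cj _), (ta_lift h k2 h6).conj (cj _),
    (ta_lift h (sq_mul h hst hu h7.2.1).2 h7).conj (cj _)]

omit h [IsAlgClosed K] in
theorem lift_noZ (z : NoZ P) (e : (mk g : Sq P) ^ n = 1) : g ^ n = 1 :=
  Subtype.ext (z _ (g ^ n).2 (mk_eq_one_iff.1 e))

theorem tv_of (p : ℕ) [Fact p.Prime] [CharP K p] [NeZero (2 : K)] (e : Tv p (Sq P)) : HasTv P := by
  obtain ⟨a, b, u, h1, h2, h3, n, hu, c1, c2⟩ := e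
  obtain ⟨s, t, k, rfl, rfl, hs, ht, -, e1, e2⟩ := frame h h1 h2 h3
  obtain ⟨u, rfl, hg⟩ : ∃ g : P, mk g = u ∧ g ^ p = 1 := by
    by_cases h5 : p = 5
    · subst h5
      obtain ⟨g, rfl⟩ := mk_surjective u
      exact ⟨g, rfl, lift_noZ h.noZ_five hu⟩
    · exact h.exists_lift hu ((Nat.coprime_primes Fact.out (by norm_num)).2 h5)
  have := rank_one p (m := k * u.1 * k⁻¹) (e1 ▸ ((lift_comm h hs (by norm_num) c1).map P.subtype).map (MulAut.conj k))
    (e2 ▸ ((lift_comm h ht (by norm_num) c2).map P.subtype).map (MulAut.conj k))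
    (by rw [conj_pow, ← Subgroup.coe_pow, hg]; simp) ((T2b.det_conj k _).trans (h.det u.2))
  rw [T2b.rank_conj] at this
  refine hasTv_of_rank u.2 (h.det u.2) (this.antisymm (Nat.pos_of_ne_zero fun z => n ?_))
  rw [show u = 1 from Subtype.ext (Units.ext (sub_eq_zero.1 (T3.eq_zero_of_rank z))), mk_one]

theorem not_hs {r : ℕ} (hr : r.Prime) (h2 : r ≠ 2) (hK : (r : K) ≠ 0) (z : r = 5 → NoZ P) : ¬ Hs r (Sq P) := by
  rintro ⟨x, y, u, n, hu, cx, cy, e, re⟩
  obtain ⟨x, rfl⟩ := mk_surjective x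
  obtain ⟨y, rfl⟩ := mk_surjective y
  obtain ⟨u, rfl, hg, cx, cy⟩ : ∃ g : P, mk g = u ∧ g ^ r = 1 ∧ Commute x g ∧ Commute y g := by
    by_cases h5 : r = 5
    · obtain ⟨g, rfl⟩ := mk_surjective u
      have k : ∀ x : P, Commute (mk x : Sq P) (mk g) → Commute x g := fun x c => commutatorElement_eq_one_iff_commute.1
        ((pow_one _).symm.trans (lift_noZ (z h5) ((pow_one _).trans (commutatorElement_eq_one_iff_commute.2 c))))
      exact ⟨g, rfl, lift_noZ (z h5) hu, k x cx, k y cy⟩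
    · have c := (Nat.coprime_primes hr (by norm_num)).2 h5
      obtain ⟨g, rfl, hg⟩ := h.exists_lift hu c
      exact ⟨g, rfl, hg, lift_comm h hg c cx, lift_comm h hg c cy⟩
  have s : (u⁻¹ * ⁅x, y⁆).1 ∈ scalars (Fin 5) K := mk_eq_mk_iff.1 e.symm
  obtain ⟨c, hc⟩ := mem_scal.1 s
  have c5 : c ^ 5 = 1 := Units.ext (five_eq_one_of_det (h.det (u⁻¹ * ⁅x, y⁆).2) (hc ▸ sc_val c))
  have e' : ⁅x.1, y.1⁆ = sc c * u.1 := by rw [sc_comm, ← hc]; simp [commutatorElement_def]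
  have u1 : u.1 ^ r = 1 := congrArg Subtype.val hg
  by_cases h3 : r = 3
  · subst h3
    obtain ⟨w, hw⟩ := isConj_iff.1 (lift_conj h hg (g' := u⁻¹) (by rw [inv_pow, hg, inv_one]) (by norm_num) (re rfl))
    exact heis3 (by exact_mod_cast hK) u1 (fun e => n (by rw [show u = 1 from Subtype.ext e, mk_one]))
      (congrArg Subtype.val cx.eq) (congrArg Subtype.val cy.eq) c5 e' hw
  · exact heis (Nat.Coprime.mul_right (m := 2) (n := 3) ((Nat.coprime_primes hr (by norm_num)).2 h2)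
      ((Nat.coprime_primes hr (by norm_num)).2 h3)) hK u1 (fun e => n (mk_eq_one_iff.2 e))
      (congrArg Subtype.val cx.eq) (congrArg Subtype.val cy.eq) c5 e'

theorem rank_three_le [Finite P] (hK : (3 : K) ≠ 0) : PRankLE 3 4 (Sq P) := fun A hA hp => by
  have c : Nat.Coprime 3 5 := by norm_num
  have cm : ∀ a b : P, mk a ∈ A → mk b ∈ A → b ^ 3 = 1 → Commute a b := fun a b ha hb e =>
    lift_comm h e c (congrArg Subtype.val (hA.is_comm.comm (⟨_, ha⟩ : A) ⟨_, hb⟩))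
  let B : Subgroup P :=
    { carrier := {g | mk g ∈ A ∧ g ^ 3 = 1}
      one_mem' := ⟨one_mem A, one_pow _⟩
      mul_mem' := fun {a b} ha hb => ⟨mul_mem ha.1 hb.1, by rw [(cm a b ha.1 hb.1 hb.2).mul_pow, ha.2, hb.2, one_mul]⟩
      inv_mem' := fun {a} ha => ⟨inv_mem ha.1, by rw [inv_pow, ha.2, inv_one]⟩ }
  have : Finite (B.map P.subtype) := Finite.of_equiv _ (B.equivMapOfInjective _ P.subtype_injective).toEquiv
  refine le_trans ?_ (card_le_four (A := B.map P.subtype) Nat.prime_three (by exact_mod_cast hK)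
    ((Subgroup.map_subtype_le _).trans h.le_sl) ?_ ?_)
  · rw [Subgroup.card_map_of_injective P.subtype_injective]
    refine Nat.card_le_card_of_surjective (fun b : B => (⟨mk b.1, b.2.1⟩ : A)) fun a => ?_
    obtain ⟨g, e, hg⟩ := h.exists_lift (hp a a.2) c
    exact ⟨⟨g, e ▸ a.2, hg⟩, Subtype.ext e⟩
  · rintro _ ⟨a, ha, rfl⟩ _ ⟨b, hb, rfl⟩
    exact congrArg Subtype.val (cm a b ha.1 hb.1 hb.2).eq
  · rintro _ ⟨a, ha, rfl⟩
    exact congrArg Subtype.val ha.2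

omit h [IsAlgClosed K] in
theorem real_of [Finite P] (p : ℕ) [Fact p.Prime] [CharP K p] (z : NoZ P)
    (r : ∀ x : Sq P, (orderOf x).Coprime p → IsConj x x⁻¹) : Real P := by
  obtain ⟨e⟩ := z.iso (.refl _)
  refine real_of_conj p fun x hx o => ?_
  have := r (e ⟨x, hx⟩) (by rwa [e.orderOf_eq, Subgroup.orderOf_mk])
  simpa using (P.subtype.comp e.symm.toMonoidHom).map_isConj this

end Cfsg.Lib.Q5H
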