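import Cfsg.Agent.Lib.Q5H.Def
import Cfsg.Prelude.Def_Spor_Mathieu
import Cfsg.Prelude.Def_Spor_J2
import Cfsg.Agent.Lib.Mathieu.Cx
import Cfsg.Agent.Lib.Mod.J2

/-!
# Q5H/Pm: alternating groups, Mathieu groups, `J₂`
-/

set_option autoImplicit false

namespace Cfsg.Lib.Q5H

open Cfsg.Lib.Calc Cfsg.Lib.Grp

theorem Pure.of_w {X : Type*} [Group X] {t : X} (g : X) (h : t ≠ 1 ∧ t * t = 1 ∧ t * (g * (t * g)) = g * (g * t)) : Pure t :=
  .of_three h.1 h.2.1 g (by
    calc _ = t * (g * (t * g)) * g⁻¹ * g⁻¹ := by group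
    _ = _ := by rw [h.2.2]; group)

/-- the test for `Pure.of_w` -/
noncomputable def purK (ap : ℕ → ℕ → ℕ) (D bs t : List ℕ) (g : ℕ) : Bool :=
  band (wne ap D bs t []) (band (weq ap D bs (t ++ t) []) (weq ap D bs (t ++ g :: (t ++ [g])) (g :: g :: t)))

/-- the test for `Bad` -/
noncomputable def badK (ap : ℕ → ℕ → ℕ) (D bs : List ℕ) (a b c : ℕ) (g : ℕ → ℕ) : Bool :=
  allA [([a], 0), ([b], 1), ([c], 2), ([a, b], 3), ([a, c], 4), ([b, c], 5), ([a, b, c], 6)] fun r => purK ap D bs r.1 (g r.2)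

theorem bad_of_cx {G X : Type*} [Group G] [MulAction G X] {n o : ℕ} {pt : ℕ → X} {ap : ℕ → ℕ → ℕ} {D bs : List ℕ} {γ : ℕ → G}
    (C : Cx G n pt ap o D γ bs) {a b c : ℕ} {g : ℕ → ℕ} (h : badK ap D bs a b c g = true) : Bad G := by
  have k : ∀ r ∈ [([a], 0), ([b], 1), ([c], 2), ([a, b], 3), ([a, c], 4), ([b, c], 5), ([a, b, c], 6)], Pure (wd γ r.1) :=
    fun r hr => by
      obtain ⟨h1, h2⟩ := band_eq_true.1 (allA_iff.1 h r hr)
      obtain ⟨h2, h3⟩ := band_eq_true.1 h2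
      exact .of_w (γ (g r.2)) ⟨C.wne h1, by simpa [wd] using C.weq h2, by simpa [wd] using C.weq h3⟩
  simp only [List.forall_mem_cons, wd_cons, wd_nil, mul_one, ← mul_assoc] at k
  exact ⟨γ a, γ b, γ c, k.1, k.2.1, k.2.2.1, k.2.2.2.1, k.2.2.2.2.1, k.2.2.2.2.2.1, k.2.2.2.2.2.2.1⟩

theorem bad_alt8 : Bad (alternatingGroup (Fin 8)) := by
  open Equiv in
  refine ⟨⟨swap 0 1 * swap 2 3, by simp [Perm.mem_alternatingGroup]⟩, ⟨swap 0 2 * swap 1 3, by simp [Perm.mem_alternatingGroup]⟩,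
    ⟨swap 4 5 * swap 6 7, by simp [Perm.mem_alternatingGroup]⟩, ?_⟩
  refine ⟨?_, ?_, ?_, ?_, ?_, ?_, ?_⟩ <;>
  exact .of_w ⟨Equiv.swap 1 2 * Equiv.swap 2 3 * (Equiv.swap 5 6 * Equiv.swap 6 7), by simp [Equiv.Perm.mem_alternatingGroup]⟩
    (by simp only [ne_eq, Subtype.ext_iff, Subgroup.coe_mul, Subgroup.coe_one]; decide +kernel)

/-- In `A₈`: `a = (01)(23)`, `b = (02)(13)`, `c = (45)(67)`, `g = (1 2 3)(5 6 7)`; `Pure.of_three _ _ g` works for all seven products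
(`g` acts without fixed points on `V₄ × V₄`); then `Bad.map` along `A₈ → A_n` (library: `alt` embeddings via
`Equiv.Perm.viaEmbeddingHom` / `extendDomainHom`). -/
theorem bad_alt {n : ℕ} (h : 8 ≤ n) : Bad (alternatingGroup (Fin n)) := by
  let f := Equiv.Perm.extendDomainHom (Fin.castLEEmb h).toEquivRange
  refine bad_alt8.map ((f.comp (alternatingGroup (Fin 8)).subtype).codRestrict _ fun x => ?_) fun x y e => ?_
  · exact (Equiv.Perm.sign_extendDomain _ _).trans x.2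
  · exact Subtype.ext (Equiv.Perm.extendDomainHom_injective _ (congrArg Subtype.val e))

/-- Explicit permutations or words (models: `SH.M12` with `mo.xw.qf` as in Lib/QS/M12, or Lib/Mathieu): `z` a 2-central involution,
`g` of order three in `C(z)`, `E = ⟨z, u, u ^ g⟩ ≤ O₂(C(z))` with `u u ^ g u ^ g² = 1`; `z u ~ u` in `O₂(C(z))`, and `z` lies in a
pure four-group. -/
theorem bad_M12 : Bad Spor.M12 :=
  let ⟨_, C⟩ := Mathieu.cx12 (D := [486276675782875778928158153890711944, 652430195171113182402608217929648264,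
    982143561065879032119436960730400808, 595349180655622790706532730519588105, 596768474421412495619798248531725380,
    892618314657696729496209601679754514]) (by decide +kernel) []
  bad_of_cx C (a := 0) (b := 1) (c := 2) (g := nth [3, 5, 3, 4, 3, 5, 4]) (by decide +kernel)

/-- `2³ : 7 ≤ M₂₂`, or `2⁴ : 3` (hexad stabiliser, `Pure.of_three`), or `One` from `Mathieu.cls22` (then give three commuting
involutions). -/
theorem bad_M22 : Bad Spor.M22 :=
  let ⟨_, C⟩ := Mathieu.cx22 (D := [971286069426373603088660463164197504, 971141245259954310092018772658620736,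
    961996611708926062682608334449314432, 971407534437494395434621727380376032]) (by decide +kernel) []
  bad_of_cx C (a := 0) (b := 1) (c := 2) (g := fun _ => 3) (by decide +kernel)

theorem bad_M23 : Bad Spor.M23 :=
  bad_M22.map (Subgroup.inclusion inf_le_left) (Subgroup.inclusion_injective _)

/-- Words in the model `SJ.Md` (`hJ`, `iso` as in Lib/QS/J2) or `Mod.J2.hasCx` (as in `KI.spo_J2`): `A₄ × A₄ ≤ A₄ × A₅ ≤ J₂`, a diagonal
element `g` of order three has no fixed point on `V₄ × V₄`, `Pure.of_three`. -/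
theorem bad_J2 : Bad Spor.J2 :=
  let ⟨_, _, _, _, C⟩ := Mod.J2.hasCx (G := Spor.J2) ⟨.refl _⟩ [([1, 0, 0, 0, 1, 0, 0, 1], 1),
    ([0, 1, 0, 0, 1, 0, 0, 1, 0, 0, 1, 0, 0, 1, 0], 1), ([1, 0, 1, 0, 0, 1, 0, 1, 0, 0, 0, 1, 0, 0, 0, 1, 0, 1, 0, 0], 1),
    ([0, 1, 0, 1, 0, 1, 0, 0, 1, 0, 0, 1, 0, 1, 0, 0, 0], 1)]
  bad_of_cx C (a := 2) (b := 3) (c := 4) (g := fun _ => 5)
    (of_bldK (k := fun D => badK (Calc.get 7) D Mod.J2.bs 2 3 4 fun _ => 5) (by decide +kernel))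

end Cfsg.Lib.Q5H
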