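import Cfsg.Agent.Lib.Q5H.Def
import Cfsg.Agent.Lib.Transfer.Criteria
import Cfsg.Agent.Lib.Small.Four
import Cfsg.Agent.S0231
import Cfsg.Agent.S1069
import Cfsg.Agent.S1163
import Cfsg.Agent.S1248

/-!
# Q5H/Sm: groups of rank one
-/

set_option autoImplicit false

namespace Cfsg.Lib.Q5H

open scoped MatrixGroups

variable {X : Type*} [Group X] {F : Type} [Field F] [Fintype F]

/-- By Thompson's transfer lemma every class of involutions meets every four-group, and the Fano plane has no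
colouring in which every line has two colours. -/
theorem one_of_eight [Finite X] [IsSimpleGroup X] (hX : ¬ IsMulCommutative X) (h : ¬ 16 ∣ Nat.card X)
    (h3 : ¬ PRankLE 2 2 X) : One X := by
  intro s t hs ht
  obtain ⟨a, b, c, k⟩ := exists_three h3
  simp only [List.forall_mem_cons] at k
  obtain ⟨ka, kb, kc, kab, kac, kbc, kabc, -⟩ := k
  have h8 : 2 ^ 3 ∣ Nat.card X := by
    simp only [PRankLE, not_forall, not_le] at h3
    obtain ⟨A, -, h2, hc⟩ := h3
    have p : IsPGroup 2 A := fun a => ⟨1, Subtype.ext (by simpa using h2 a a.2)⟩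
    obtain ⟨n, hn⟩ := IsPGroup.iff_card.1 p
    rw [hn] at hc
    exact (pow_dvd_pow 2 ((Nat.pow_lt_pow_iff_right (by decide)).1 hc)).trans (hn ▸ A.card_subgroup_dvd_card)
  have line : ∀ {u : X}, orderOf u = 2 → ∀ {x y z : X}, x ≠ 1 ∧ x * x = 1 → y ≠ 1 ∧ y * y = 1 → z ≠ 1 ∧ z * z = 1 →
      x * y = z → IsConj u x ∨ IsConj u y ∨ IsConj u z := by
    rintro u hu x y z hx hy hz rfl
    have f : Small.FourGen x y := ⟨hx.1, hy.1, fun e => hz.1 (e ▸ hx.2), hx.2, hy.2, comm_of_sq hx.2 hy.2 hz.2⟩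
    obtain ⟨P, hP⟩ := (IsPGroup.of_card (p := 2) (n := 2) f.card_four).exists_le_sylow
    have c : Nat.card P = 8 := by
      rw [P.card_eq_multiplicity, show (Nat.card X).factorization 2 = 3 from le_antisymm
        (Nat.lt_succ_iff.1 (not_le.1 fun r => h ((Nat.prime_two.pow_dvd_iff_le_factorization Nat.card_pos.ne').2 r)))
        ((Nat.prime_two.pow_dvd_iff_le_factorization Nat.card_pos.ne').1 h8)]
      rfl
    have i : f.four.relIndex P = 2 := by
      have := (f.four.subgroupOf P).card_mul_index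
      rw [Nat.card_congr (Subgroup.subgroupOfEquivOfLe hP).toEquiv, f.card_four, c] at this
      change 4 * f.four.relIndex P = 8 at this
      omega
    obtain ⟨g, hg⟩ := Transfer.exists_conj_mem_of_thompson_transfer (Transfer.pResidual_eq_top_of_simple hX) P i
      (orderOf_dvd_iff_pow_eq_one.1 hu.dvd)
    rcases f.mem_four.1 hg with e | e | e | e
    · rw [conj_eq_one_iff.1 e, orderOf_one] at hu
      omega
    exacts [.inl (isConj_iff.2 ⟨g, e⟩), .inr (.inl (isConj_iff.2 ⟨g, e⟩)), .inr (.inr (isConj_iff.2 ⟨g, e⟩))]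
  have ab := comm_of_sq ka.2 kb.2 kab.2
  have ac := comm_of_sq ka.2 kc.2 kac.2
  have bc := comm_of_sq kb.2 kc.2 kbc.2
  have e1 : a * (b * c) = a * b * c := (mul_assoc _ _ _).symm
  have e2 : b * (a * c) = a * b * c := by rw [← mul_assoc, ab]
  have e3 : a * b * (a * c) = b * c := by rw [ab, mul_assoc, ← mul_assoc a, ka.2, one_mul]
  have all : ∀ {u : X}, orderOf u = 2 → _ := fun hu => And.intro (line hu ka kb kab rfl) (And.intro (line hu ka kc kac rfl)
    (And.intro (line hu kb kc kbc rfl) (And.intro (line hu ka kbc kabc e1) (And.intro (line hu kb kac kabc e2)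
      (And.intro (line hu kab kc kabc rfl) (line hu kab kac kbc e3))))))
  by_contra n
  have d : ∀ x, IsConj t x → ¬ IsConj s x := fun x p q => n (q.trans p.symm)
  have p := all hs
  have q := all ht
  have q' := And.intro (d a) (And.intro (d b) (And.intro (d c) (And.intro (d (a * b)) (And.intro (d (a * c))
    (And.intro (d (b * c)) (d (a * b * c)))))))
  clear * - p q q'
  grind

/-- `S1069`; `q = 3 ^ (2 m + 1) ≡ 3 mod 8`, so `q - 1 ≡ 2 mod 4`, `q ^ 3 + 1 ≡ 4 mod 8`. -/
theorem ree_card (h : Lie.IsoRee X) : ¬ 16 ∣ Nat.card X := by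
  obtain ⟨K, _, _, m, -, hK, ⟨e⟩⟩ := h
  rw [Nat.card_congr e.toEquiv, Agent.S1069.result hK]
  have : 3 ^ (2 * m + 1) % 8 = 3 := by
    rw [pow_succ, pow_mul, Nat.mul_mod, Nat.pow_mod]; simp
  obtain ⟨k, hk⟩ : ∃ k, 3 ^ (2 * m + 1) = 8 * k + 3 := ⟨3 ^ (2 * m + 1) / 8, by omega⟩
  rw [hk, show (8 * k + 3) ^ 3 * (8 * k + 3 - 1) * ((8 * k + 3) ^ 3 + 1) =
    8 * ((8 * k + 3) ^ 3 * (4 * k + 1) * (128 * k ^ 3 + 144 * k ^ 2 + 54 * k + 7)) by
      rw [show 8 * k + 3 - 1 = 8 * k + 2 from rfl]; ring, show 16 = 8 * 2 from rfl, Nat.mul_dvd_mul_iff_left (by decide),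
    ← even_iff_two_dvd, Nat.not_even_iff_odd]
  exact ((Odd.pow ⟨4 * k + 1, by ring⟩).mul ⟨2 * k, by ring⟩).mul ⟨64 * k ^ 3 + 72 * k ^ 2 + 27 * k + 3, by ring⟩

/-- `S0231` with the TI property (`S1163`: `S` is regular on the other points; or `Sz.lieModel`, or the Bender library). -/
theorem one_Sz (hF : Fintype.card F = 2 ^ (2 * 1 + 1)) : One (Lie.Sz F (2 ^ (1 + 1))) := by
  obtain ⟨c, S, -, i, -, r⟩ := Agent.S1163.result le_rfl hF
  haveI : Finite (Lie.Sz F (2 ^ (1 + 1))) := Nat.finite_of_card_ne_zero (by rw [c]; norm_num)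
  refine Agent.S0231.result S (fun n => ?_) fun g hg => eq_bot_iff.2 fun x hx => ?_
  · rw [Subgroup.normalizer_eq_top_iff.2 n, Subgroup.index_top] at i
    norm_num at i
  · have n : (QuotientGroup.mk g : _ ⧸ Subgroup.normalizer (S : Set (Lie.Sz F (2 ^ (1 + 1))))) ≠ QuotientGroup.mk 1 :=
      fun e => hg (Subgroup.ext fun y => by
        rw [Subgroup.mem_pointwise_smul_iff_inv_smul_mem]
        simpa using (Subgroup.mem_normalizer_iff.1 (QuotientGroup.eq.1 e) y).symm)
    obtain ⟨s, -, u⟩ := r _ _ n n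
    have := (u ⟨x, hx.2⟩ (QuotientGroup.eq.2 (Subgroup.le_normalizer ?_))).trans (u 1 (one_smul _ _)).symm
    · exact congrArg Subtype.val this
    · have := Subgroup.mem_pointwise_smul_iff_inv_smul_mem.1 hx.1
      simpa [mul_assoc] using inv_mem this

/-- `x(s) = !![1, s; 0, 1]`, `x(s) x(s') = x(s + s')`, `x(s) ~ x(l² s)` by `diag(l, l⁻¹)` and every element of `F` is a square, so
every `x(s)`, `s ≠ 0`, is `Pure`; take `s = a, b, c` with all seven sums non-zero (`|F| > 4`). -/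
theorem bad_L2 (hF : Fintype.card F = 8 ∨ Fintype.card F = 16) : Bad PSL(2, F) := by
  classical
  have h2 : ringChar F = 2 := FiniteField.even_card_iff_char_two.2 (by omega)
  haveI : CharP F 2 := ringChar.of_eq h2
  let x : F → PSL(2, F) := fun s => QuotientGroup.mk (Matrix.SpecialLinearGroup.transvection (zero_ne_one (α := Fin 2)) s)
  have add : ∀ s t, x s * x t = x (s + t) := fun s t => by
    simp only [x, Matrix.SpecialLinearGroup.transvection_add, QuotientGroup.mk_mul]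
  have cj : ∀ s t, s ≠ 0 → t ≠ 0 → IsConj (x s) (x t) := fun s t hs ht => by
    obtain ⟨l, hl⟩ := FiniteField.isSquare_of_char_two h2 (t / s)
    have l0 : l ≠ 0 := fun e => div_ne_zero ht hs (by rw [hl, e, mul_zero])
    refine (QuotientGroup.mk' _).map_isConj (isConj_iff.2 ⟨⟨!![l, 0; 0, l⁻¹], by simp [Matrix.det_fin_two, l0]⟩,
      mul_inv_eq_iff_eq_mul.2 (Subtype.ext (Matrix.ext fun i j => ?_))⟩)
    change (!![l, 0; 0, l⁻¹] * (1 + Matrix.single 0 1 s) : Matrix (Fin 2) (Fin 2) F) i j =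
      ((1 + Matrix.single 0 1 t) * !![l, 0; 0, l⁻¹] : Matrix (Fin 2) (Fin 2) F) i j
    fin_cases i <;> fin_cases j <;> simp [Matrix.mul_apply, Fin.sum_univ_two]
    field_simp at hl ⊢
    rw [hl]
  have nx : ∀ a b : F, ∃ c, c ≠ 0 ∧ c ≠ a ∧ c ≠ b ∧ c ≠ a + b := fun a b => by
    by_contra! k
    have := Finset.card_le_card (show Finset.univ ⊆ ({0, a, b, a + b} : Finset F) from fun c _ => by
      have := k c
      simp only [Finset.mem_insert, Finset.mem_singleton]
      tauto)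
    have := this.trans Finset.card_le_four
    rw [Finset.card_univ] at this
    omega
  have ne : ∀ {a b : F}, b ≠ a → a + b ≠ 0 := fun n e => n (CharTwo.add_eq_zero.1 e).symm
  have pu : ∀ s, s ≠ 0 → Pure (x s) := fun s hs => by
    obtain ⟨t, t0, ts, -⟩ := nx s s
    refine ⟨fun e => hs ((Matrix.SpecialLinearGroup.transvection_mem_center_iff _ _).1 ((QuotientGroup.eq_one_iff _).1 e)),
      by simp [add, CharTwo.add_self_eq_zero, x], x t, cj s t hs t0, add s t ▸ cj s _ hs (ne ts)⟩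
  obtain ⟨a, a0, -⟩ := nx 0 0
  obtain ⟨b, b0, ba, -⟩ := nx a a
  obtain ⟨c, c0, ca, cb, cab⟩ := nx a b
  refine ⟨x a, x b, x c, pu a a0, pu b b0, pu c c0, ?_, ?_, ?_, ?_⟩ <;> simp only [add]
  exacts [pu _ (ne ba), pu _ (ne ca), pu _ (ne cb), pu _ (ne cab)]

/-- `S1248`: an elementary abelian subgroup lies in a Sylow 2-subgroup `S`, hence in the four-group `Z(S)`. -/
theorem rank_U34 (hF : Fintype.card F = 16) : PRankLE 2 2 (PSU 3 F 4) := fun A _ h2 => by
  have p : IsPGroup 2 A := fun a => ⟨1, Subtype.ext (by simpa using h2 a a.2)⟩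
  obtain ⟨S, hS⟩ := p.exists_le_sylow
  obtain ⟨-, k, e, -⟩ := Agent.S1248.result hF S
  rw [← Nat.card_congr (Subgroup.subgroupOfEquivOfLe hS).toEquiv]
  refine le_of_le_of_eq ?_ k.card_four
  haveI : Finite (Subgroup.center (S : Subgroup (PSU 3 F 4))) := Nat.finite_of_card_ne_zero (by rw [k.card_four]; decide)
  refine Subgroup.card_le_of_le fun a ha => ?_
  by_cases a1 : a = 1
  · exact a1 ▸ one_mem _
  · exact e ▸ Subgroup.subset_closure (orderOf_eq_prime (Subtype.ext (h2 _ ha)) a1)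

end Cfsg.Lib.Q5H
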