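import Cfsg.Agent.Lib.Q5H.Def
import Cfsg.Agent.S2586
import Cfsg.Agent.S2589

/-!
# Q5H/Sp: `PSp₄` in odd characteristic
-/

set_option autoImplicit false

namespace Cfsg.Lib.Q5H

open Matrix Subgroup QuotientGroup
open scoped commutatorElement

variable {F : Type} [Field F]

namespace Sp

/-- `[1 B; 0 1]` for `B = !![a, b; b, c]`. -/
def ss (v : F × F × F) : symplecticGroup (Fin 2) F :=
  ⟨fromBlocks 1 !![v.1, v.2.1; v.2.1, v.2.2] 0 1, SymplecticGroup.mem_iff.2 (by
    rw [J, fromBlocks_transpose, fromBlocks_multiply, fromBlocks_multiply]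
    simp only [fromBlocks_inj]
    refine ⟨?_, by simp, by simp, by simp⟩
    ext i j
    fin_cases i <;> fin_cases j <;> simp)⟩

theorem ss_add (v w : F × F × F) : ss (v + w) = ss v * ss w := Subtype.ext (by
  simp [ss, fromBlocks_multiply, add_comm])

/-- The Siegel radical. -/
def sh : Multiplicative (F × F × F) →* symplecticGroup (Fin 2) F :=
  .mk' (fun v => ss v.toAdd) fun _ _ => ss_add _ _

/-- `[A 0; 0 A⁻ᵀ]` for `A = 1 + E₀₁`. -/
def ll : symplecticGroup (Fin 2) F :=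
  ⟨fromBlocks !![1, 1; 0, 1] 0 0 !![1, 0; -1, 1], SymplecticGroup.mem_iff.2 (by
    rw [J, fromBlocks_transpose, fromBlocks_multiply, fromBlocks_multiply]
    simp only [fromBlocks_inj]
    refine ⟨by simp, ?_, ?_, by simp⟩ <;> ext i j <;> fin_cases i <;> fin_cases j <;> simp [vecMul, dotProduct])⟩

theorem ll_ss (a b c : F) : ll * ss (a, b, c) = ss (a + 2 * b + c, b + c, c) * ll := Subtype.ext (by
  simp only [ss, ll, Submonoid.coe_mul, fromBlocks_multiply, fromBlocks_inj]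
  refine ⟨by simp, ?_, by simp, by simp⟩
  ext i j
  fin_cases i <;> fin_cases j <;> simp
  ring)

theorem ss_ne {v : F × F × F} (h : v ≠ 0) : (mk (ss v) : PSp 2 F) ≠ 1 :=
  mk_ne_one (w := ⟨_, SymplecticGroup.J_mem _ F⟩) fun e => h (by
    have := (fromBlocks_inj.1 (by
      simpa only [ss, Submonoid.coe_mul, J, fromBlocks_multiply] using congrArg Subtype.val e)).1
    have k := Matrix.ext_iff.2 this
    exact Prod.ext (by simpa using k 0 0) (Prod.ext (by simpa using k 0 1) (by simpa using k 1 1)))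

end Sp

open Sp

variable [Fintype F]

omit [Fintype F] in
/-- Block matrices (`Matrix.fromBlocks`): `s(B) = [1 B; 0 1]`, `B` symmetric, `l(A) = [A 0; 0 A⁻ᵀ]`; `x = l(1 + E₀₁)`,
`y = s(E₀₁ + E₁₀)`, `u = ⁅x, y⁆ = s(2 E₀₀)`. -/
theorem hs_Sp (r : ℕ) [CharP F r] (h2 : r ≠ 2) (h3 : r ≠ 3) : Hs r (PSp 2 F) := by
  have t : (2 : F) ≠ 0 := fun e => h2 (CharP.eq F ‹_› ((CharP.charP_iff_prime_eq_zero Nat.prime_two).2 e))
  refine ⟨mk ll, mk (ss (0, 1, 0)), mk (ss (2, 0, 0)), ss_ne (by simp [t]), ?_, congrArg mk ?_, congrArg mk ?_, ?_,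
    fun e => absurd e h3⟩
  · have := map_pow (sh (F := F)) (.ofAdd (2, 0, 0)) r
    rw [← ofAdd_nsmul, ← Nat.cast_smul_eq_nsmul F, CharP.cast_eq_zero, zero_smul, ofAdd_zero, map_one] at this
    exact congrArg mk this.symm
  · simp [ll_ss]
  · simp only [← ss_add, add_comm]
  · rw [commutatorElement_def, mul_inv_eq_iff_eq_mul, mul_inv_eq_iff_eq_mul]
    exact congrArg mk (by simp [ll_ss, ← ss_add])

/-- `not_rank` with `(a, b, c) ↦ s(!![a, b; b, c])`; `|F| ≥ 9`. -/
theorem big_Sp [CharP F 3] (h : Fintype.card F ≠ 3) : ¬ PRankLE 3 4 (PSp 2 F) := by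
  refine not_rank ((mk' _).comp sh) ((injective_iff_map_eq_one _).2 fun v e => by_contra fun n => ss_ne n e)
    (fun v => by rw [← Nat.cast_smul_eq_nsmul F, CharP.cast_eq_zero, zero_smul]) ?_
  obtain ⟨n, -, e⟩ := FiniteField.card F 3
  have : 3 ^ 2 ≤ Nat.card F := by
    rw [Nat.card_eq_fintype_card, e]
    refine Nat.pow_le_pow_right (by norm_num) (by_contra fun k => h ?_)
    rw [e, show (n : ℕ) = 1 by have := n.pos; omega, pow_one]
  simp only [Nat.card_prod]
  exact lt_of_lt_of_le (by norm_num) (Nat.mul_le_mul this (Nat.mul_le_mul this this))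

/-- `x = mk A`, `A ^ (2 * orderOf x) = 1` (the centre is `±1`); `S2589` and `S2586`. -/
theorem real_Sp (p : ℕ) [Fact p.Prime] [CharP F p] (h2 : p ≠ 2) (x : PSp 2 F) (h : (orderOf x).Coprime p) : IsConj x x⁻¹ := by
  obtain ⟨A, rfl⟩ := mk_surjective x
  have : A ^ (orderOf (mk A : PSp 2 F) * 2) = 1 := by
    rcases (Symp.mem_center_sp_iff _).1 ((QuotientGroup.eq_one_iff (A ^ orderOf (mk A : PSp 2 F))).1 
      (pow_orderOf_eq_one (mk A : PSp 2 F))) with e | e <;>
      exact Subtype.ext (by rw [pow_mul, pow_two, Submonoid.coe_mul, e]; simp [Symp.negOneSp])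
  exact (mk' _).map_isConj ((Agent.S2589.result (p := p) A A⁻¹ (Nat.Coprime.coprime_dvd_left (orderOf_dvd_of_pow_eq_one this)
    (h.mul_left ((Nat.coprime_primes Nat.prime_two Fact.out).2 h2.symm)))).2 (Agent.S2586.result A))

end Cfsg.Lib.Q5H
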